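import Cfsg.Agent.Schur.Suz.CovD

set_option autoImplicit false
set_option maxRecDepth 100000

namespace Cfsg.Agent.Schur.Suz
open Cfsg.Agent.Comp Cfsg.Agent.Schur

theorem covE_17_0 : EqsP 70866 0 17 TC covE_17L :=
  eqsP_of okC (by norm_num) (by norm_num) (by norm_num) (show eqsP (nat_lit 70866) (nat_lit 17) (nat_lit 0) (nat_lit 17) TC covE_17L = true by decide +kernel)

theorem covE_18_0 : EqsP 70866 0 17 TC covE_18L :=
  eqsP_of okC (by norm_num) (by norm_num) (by norm_num) (show eqsP (nat_lit 70866) (nat_lit 17) (nat_lit 0) (nat_lit 17) TC covE_18L = true by decide +kernel)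


end Cfsg.Agent.Schur.Suz
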