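import Cfsg.Agent.Schur.Suz.Cov0
import Cfsg.Agent.Schur.Suz.Cov1

set_option autoImplicit false
set_option maxRecDepth 100000

namespace Cfsg.Agent.Schur.Suz
open Cfsg.Agent.Comp Cfsg.Agent.Schur

theorem covE_0 : ∀ e ∈ covE_0L, ev (sig TC) e.1 = ev (sig TC) e.2 := EqsP.eqs covE_0_0 okC (by norm_num)

theorem covE_1 : ∀ e ∈ covE_1L, ev (sig TC) e.1 = ev (sig TC) e.2 := EqsP.eqs covE_1_0 okC (by norm_num)

theorem covE_2 : ∀ e ∈ covE_2L, ev (sig TC) e.1 = ev (sig TC) e.2 := EqsP.eqs covE_2_0 okC (by norm_num)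

theorem covE_3 : ∀ e ∈ covE_3L, ev (sig TC) e.1 = ev (sig TC) e.2 := EqsP.eqs covE_3_0 okC (by norm_num)

theorem covE_4 : ∀ e ∈ covE_4L, ev (sig TC) e.1 = ev (sig TC) e.2 := EqsP.eqs covE_4_0 okC (by norm_num)

theorem covE_5 : ∀ e ∈ covE_5L, ev (sig TC) e.1 = ev (sig TC) e.2 := EqsP.eqs covE_5_0 okC (by norm_num)

theorem covE_6 : ∀ e ∈ covE_6L, ev (sig TC) e.1 = ev (sig TC) e.2 := EqsP.eqs covE_6_0 okC (by norm_num)

theorem covE_7 : ∀ e ∈ covE_7L, ev (sig TC) e.1 = ev (sig TC) e.2 := EqsP.eqs covE_7_0 okC (by norm_num)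

theorem covE_8 : ∀ e ∈ covE_8L, ev (sig TC) e.1 = ev (sig TC) e.2 := EqsP.eqs covE_8_0 okC (by norm_num)

theorem covE_9 : ∀ e ∈ covE_9L, ev (sig TC) e.1 = ev (sig TC) e.2 := EqsP.eqs covE_9_0 okC (by norm_num)

theorem covE_10 : ∀ e ∈ covE_10L, ev (sig TC) e.1 = ev (sig TC) e.2 := EqsP.eqs covE_10_0 okC (by norm_num)

theorem covE_11 : ∀ e ∈ covE_11L, ev (sig TC) e.1 = ev (sig TC) e.2 := EqsP.eqs covE_11_0 okC (by norm_num)

theorem covE_12 : ∀ e ∈ covE_12L, ev (sig TC) e.1 = ev (sig TC) e.2 := EqsP.eqs covE_12_0 okC (by norm_num)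

theorem covE_13 : ∀ e ∈ covE_13L, ev (sig TC) e.1 = ev (sig TC) e.2 := EqsP.eqs covE_13_0 okC (by norm_num)

theorem covE_14 : ∀ e ∈ covE_14L, ev (sig TC) e.1 = ev (sig TC) e.2 := EqsP.eqs covE_14_0 okC (by norm_num)

theorem covE_15 : ∀ e ∈ covE_15L, ev (sig TC) e.1 = ev (sig TC) e.2 := EqsP.eqs covE_15_0 okC (by norm_num)

theorem covE_16 : ∀ e ∈ covE_16L, ev (sig TC) e.1 = ev (sig TC) e.2 := EqsP.eqs (EqsP.join (EqsP.join (EqsP.join (EqsP.join covE_16_0 covE_16_4) covE_16_8) covE_16_12) covE_16_16) okC (by norm_num)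

theorem covE_17 : ∀ e ∈ covE_17L, ev (sig TC) e.1 = ev (sig TC) e.2 := EqsP.eqs covE_17_0 okC (by norm_num)

theorem covE_18 : ∀ e ∈ covE_18L, ev (sig TC) e.1 = ev (sig TC) e.2 := EqsP.eqs covE_18_0 okC (by norm_num)

theorem covE : ∀ e ∈ (covEqs 7 1 (5 + 1) Cfsg.Agent.Comp.Suz.R Zs), ev (sig TC) e.1 = ev (sig TC) e.2 :=
  (show (covE_0L ++ (covE_1L ++ (covE_2L ++ (covE_3L ++ (covE_4L ++ (covE_5L ++ (covE_6L ++ (covE_7L ++ (covE_8L ++ (covE_9L ++ (covE_10L ++ (covE_11L ++ (covE_12L ++ (covE_13L ++ (covE_14L ++ (covE_15L ++ (covE_16L ++ (covE_17L ++ covE_18L)))))))))))))))))) = (covEqs 7 1 (5 + 1) Cfsg.Agent.Comp.Suz.R Zs) by decide +kernel) ▸ (eqs_append covE_0 (eqs_append covE_1 (eqs_append covE_2 (eqs_append covE_3 (eqs_append covE_4 (eqs_append covE_5 (eqs_append covE_6 (eqs_append covE_7 (eqs_append covE_8 (eqs_append covE_9 (eqs_append covE_10 (eqs_append covE_11 (eqs_append covE_12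 (eqs_append covE_13 (eqs_append covE_14 (eqs_append covE_15 (eqs_append covE_16 (eqs_append covE_17 covE_18))))))))))))))))))

def lvC : List (List (List Nat) × List Nat × Nat × Nat) :=
  [([[7]], [0, 0], 0, 3),
   ([[7, 7, 7]], [0], 5346, 2)]

theorem low : Low Cfsg.Spor.Suz 6 :=
  haveI := Cfsg.Agent.Comp.Suz.simple
  low_net Cfsg.Agent.Comp.Suz.pres okC (l := 17) (by norm_num) covE (a := 0) (a' := 1) (p := 1) (x := 1784) (y := 6)
    (by decide +kernel) (by decide +kernel) (b := 13)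
    (C := [nat_lit 0x200400702006020040300202])
    (by decide +kernel) (lv := lvC) (by decide +kernel) (by decide +kernel)

end Cfsg.Agent.Schur.Suz
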